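import Cfsg.Agent.Helper28.C1690.DataR

set_option autoImplicit false
set_option Elab.async false

namespace Cfsg.Agent.Helper28.C1690

theorem pwa_55 : Cfsg.Agent.Helper28.ptChunk (Cfsg.Agent.Helper28.Gn.powPt lookT lookW0 306936 preC0 repC0 9) 306936 4096 55 = true := by delta lookT lookW0; decide +kernel

theorem pwa_56 : Cfsg.Agent.Helper28.ptChunk (Cfsg.Agent.Helper28.Gn.powPt lookT lookW0 306936 preC0 repC0 9) 306936 4096 56 = true := by delta lookT lookW0; decide +kernel

theorem pwa_57 : Cfsg.Agent.Helper28.ptChunk (Cfsg.Agent.Helper28.Gn.powPt lookT lookW0 306936 preC0 repC0 9) 306936 4096 57 = true := by delta lookT lookW0; decide +kernel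

theorem pwa_58 : Cfsg.Agent.Helper28.ptChunk (Cfsg.Agent.Helper28.Gn.powPt lookT lookW0 306936 preC0 repC0 9) 306936 4096 58 = true := by delta lookT lookW0; decide +kernel

theorem pwa_59 : Cfsg.Agent.Helper28.ptChunk (Cfsg.Agent.Helper28.Gn.powPt lookT lookW0 306936 preC0 repC0 9) 306936 4096 59 = true := by delta lookT lookW0; decide +kernel

end Cfsg.Agent.Helper28.C1690
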