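import Cfsg.Agent.Helper28.C1690.DataR

set_option autoImplicit false
set_option Elab.async false

namespace Cfsg.Agent.Helper28.C1690

theorem rel_4 : Cfsg.Agent.Helper28.ptChunk (Cfsg.Agent.Helper28.Gn.relPtC lookT relC1) 306936 1024 4 = true := by delta lookT; decide +kernel

theorem rel_5 : Cfsg.Agent.Helper28.ptChunk (Cfsg.Agent.Helper28.Gn.relPtC lookT relC1) 306936 1024 5 = true := by delta lookT; decide +kernel

theorem rel_6 : Cfsg.Agent.Helper28.ptChunk (Cfsg.Agent.Helper28.Gn.relPtC lookT relC1) 306936 1024 6 = true := by delta lookT; decide +kernel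

theorem rel_7 : Cfsg.Agent.Helper28.ptChunk (Cfsg.Agent.Helper28.Gn.relPtC lookT relC1) 306936 1024 7 = true := by delta lookT; decide +kernel

end Cfsg.Agent.Helper28.C1690
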