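import Cfsg.Agent.Helper28.C1690.DataR

set_option autoImplicit false
set_option Elab.async false

namespace Cfsg.Agent.Helper28.C1690

theorem rel_44 : Cfsg.Agent.Helper28.ptChunk (Cfsg.Agent.Helper28.Gn.relPtC lookT relC1) 306936 1024 44 = true := by delta lookT; decide +kernel

theorem rel_45 : Cfsg.Agent.Helper28.ptChunk (Cfsg.Agent.Helper28.Gn.relPtC lookT relC1) 306936 1024 45 = true := by delta lookT; decide +kernel

theorem rel_46 : Cfsg.Agent.Helper28.ptChunk (Cfsg.Agent.Helper28.Gn.relPtC lookT relC1) 306936 1024 46 = true := by delta lookT; decide +kernel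

theorem rel_47 : Cfsg.Agent.Helper28.ptChunk (Cfsg.Agent.Helper28.Gn.relPtC lookT relC1) 306936 1024 47 = true := by delta lookT; decide +kernel

end Cfsg.Agent.Helper28.C1690
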