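import Cfsg.Agent.Helper28.C1690.Data

set_option autoImplicit false
set_option Elab.async false

namespace Cfsg.Agent.Helper28.C1690

theorem rows_80 : Cfsg.Agent.Helper28.ptChunk (Cfsg.Agent.Helper28.Gn.rowChk D) 354544 512 80 = true := by decide +kernel

theorem rows_81 : Cfsg.Agent.Helper28.ptChunk (Cfsg.Agent.Helper28.Gn.rowChk D) 354544 512 81 = true := by decide +kernel

theorem rows_82 : Cfsg.Agent.Helper28.ptChunk (Cfsg.Agent.Helper28.Gn.rowChk D) 354544 512 82 = true := by decide +kernel

theorem rows_83 : Cfsg.Agent.Helper28.ptChunk (Cfsg.Agent.Helper28.Gn.rowChk D) 354544 512 83 = true := by decide +kernel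

theorem rows_84 : Cfsg.Agent.Helper28.ptChunk (Cfsg.Agent.Helper28.Gn.rowChk D) 354544 512 84 = true := by decide +kernel

theorem rows_85 : Cfsg.Agent.Helper28.ptChunk (Cfsg.Agent.Helper28.Gn.rowChk D) 354544 512 85 = true := by decide +kernel

theorem rows_86 : Cfsg.Agent.Helper28.ptChunk (Cfsg.Agent.Helper28.Gn.rowChk D) 354544 512 86 = true := by decide +kernel

theorem rows_87 : Cfsg.Agent.Helper28.ptChunk (Cfsg.Agent.Helper28.Gn.rowChk D) 354544 512 87 = true := by decide +kernel

end Cfsg.Agent.Helper28.C1690
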