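import Cfsg.Agent.Helper28.C1690.Data

set_option autoImplicit false
set_option Elab.async false

namespace Cfsg.Agent.Helper28.C1690

theorem rows_96 : Cfsg.Agent.Helper28.ptChunk (Cfsg.Agent.Helper28.Gn.rowChk D) 354544 512 96 = true := by decide +kernel

theorem rows_97 : Cfsg.Agent.Helper28.ptChunk (Cfsg.Agent.Helper28.Gn.rowChk D) 354544 512 97 = true := by decide +kernel

theorem rows_98 : Cfsg.Agent.Helper28.ptChunk (Cfsg.Agent.Helper28.Gn.rowChk D) 354544 512 98 = true := by decide +kernel

theorem rows_99 : Cfsg.Agent.Helper28.ptChunk (Cfsg.Agent.Helper28.Gn.rowChk D) 354544 512 99 = true := by decide +kernel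

theorem rows_100 : Cfsg.Agent.Helper28.ptChunk (Cfsg.Agent.Helper28.Gn.rowChk D) 354544 512 100 = true := by decide +kernel

theorem rows_101 : Cfsg.Agent.Helper28.ptChunk (Cfsg.Agent.Helper28.Gn.rowChk D) 354544 512 101 = true := by decide +kernel

theorem rows_102 : Cfsg.Agent.Helper28.ptChunk (Cfsg.Agent.Helper28.Gn.rowChk D) 354544 512 102 = true := by decide +kernel

theorem rows_103 : Cfsg.Agent.Helper28.ptChunk (Cfsg.Agent.Helper28.Gn.rowChk D) 354544 512 103 = true := by decide +kernel

end Cfsg.Agent.Helper28.C1690
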